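import Cfsg.Agent.Lib.CharTheory.Decomp
import Cfsg.Agent.Lib.Frobenius.Induce
import Mathlib.RepresentationTheory.Maschke

/-!
# Characters realisable over a subfield of `ℂ`

If `a = χ + b` with `a`, `b` realisable over `K` and `χ` a character, then `χ` is realisable.
-/

set_option autoImplicit false

open Module

namespace CfsgLib.Frobenius

universe u v

variable {G : Type u} [Group G] {K : Type v} [Field K] (ι : K →+* ℂ)

/-- `f` is the image under `ι` of the character of a representation over `K`. -/
def IsRealisable (f : G → ℂ) : Prop :=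
  ∃ (n : ℕ) (ρ : Representation K G (Fin n → K)), ∀ g, f g = ι (ρ.character g)

theorem isRealisable_character {V : Type*} [AddCommGroup V] [Module K V] [FiniteDimensional K V]
    (ρ : Representation K G V) : IsRealisable ι (fun g => ι (ρ.character g)) := by
  let e : V ≃ₗ[K] (Fin (finrank K V) → K) := (Module.finBasis K V).equivFun
  refine ⟨_, (e.conjAlgEquiv K).toAlgHom.toMonoidHom.comp ρ, fun g => ?_⟩
  exact congrArg ι (LinearMap.trace_conj' (ρ g) e).symm

theorem isRealisable_of_matrix {κ : Type*} [Fintype κ] [DecidableEq κ]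
    (M : G →* Matrix κ κ K) : IsRealisable ι (fun g => ι (M g).trace) := by
  have h := isRealisable_character ι
    ((Matrix.toLinAlgEquiv' (R := K) (n := κ)).toAlgHom.toMonoidHom.comp M :
      Representation K G (κ → K))
  obtain ⟨n, ρ, hρ⟩ := h
  refine ⟨n, ρ, fun g => (congrArg ι ?_).trans (hρ g)⟩
  exact (Matrix.trace_toLin'_eq (M g)).symm

theorem isRealisable_zero : IsRealisable (G := G) ι 0 := by
  refine ⟨0, 1, fun g => ?_⟩
  show (0 : ℂ) = ι (LinearMap.trace K _ ((1 : Representation K G (Fin 0 → K)) g))
  rw [Subsingleton.elim ((1 : Representation K G (Fin 0 → K)) g) 0, map_zero, map_zero]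

theorem IsRealisable.add {f f' : G → ℂ} (h : IsRealisable ι f) (h' : IsRealisable ι f') :
    IsRealisable ι (f + f') := by
  obtain ⟨n, ρ, hρ⟩ := h
  obtain ⟨m, σ, hσ⟩ := h'
  obtain ⟨k, τ, hτ⟩ := isRealisable_character ι (ρ.prod σ)
  refine ⟨k, τ, fun g => ?_⟩
  rw [Pi.add_apply, hρ, hσ, ← map_add, ← hτ]
  exact congrArg ι (LinearMap.trace_prodMap' (ρ g) (σ g)).symm

theorem isCharacter_of_realisable {f : G → ℂ} (h : IsRealisable ι f) : Cfsg.IsCharacter G f := by
  obtain ⟨n, ρ, hρ⟩ := h
  let M : G →* Matrix (Fin n) (Fin n) ℂ :=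
    (ι.mapMatrix (m := Fin n)).toMonoidHom.comp
      ((LinearMap.toMatrixAlgEquiv' (R := K) (n := Fin n)).toAlgHom.toMonoidHom.comp ρ)
  refine ⟨n, (Matrix.toLinAlgEquiv' : Matrix (Fin n) (Fin n) ℂ ≃ₐ[ℂ] _).toAlgHom.toMonoidHom.comp M,
    funext fun g => ?_⟩
  rw [hρ]
  show LinearMap.trace ℂ _ (Matrix.toLin' (M g)) = _
  rw [Matrix.trace_toLin'_eq, Representation.character,
    LinearMap.trace_eq_matrix_trace K (Pi.basisFun K (Fin n)), LinearMap.toMatrix_eq_toMatrix',
    AddMonoidHom.map_trace]
  rfl

section Split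

variable {V : Type*} [AddCommGroup V] [Module K V] [FiniteDimensional K V]

/-- Complementary subrepresentations add up. -/
theorem character_eq_add_of_isCompl {ρ : Representation K G V} {p c : Subrepresentation ρ}
    (h : IsCompl p c) :
    ρ.character = p.toRepresentation.character + c.toRepresentation.character := by
  let f : (p.toSubmodule × c.toSubmodule) →ₗ[K] V :=
    p.toSubmodule.subtype.coprod c.toSubmodule.subtype
  have hbij : Function.Bijective f := by
    constructor
    · rw [← LinearMap.ker_eq_bot]
      refine eq_bot_iff.2 fun x hx => ?_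
      have h0 : (x.1 : V) + (x.2 : V) = 0 := LinearMap.mem_ker.1 hx
      have h1 : (x.1 : V) ∈ (p ⊓ c).toSubmodule :=
        ⟨x.1.2, by rw [eq_neg_of_add_eq_zero_left h0]; exact neg_mem x.2.2⟩
      rw [h.inf_eq_bot] at h1
      have h1' : (x.1 : V) = 0 := (Submodule.mem_bot K).1 h1
      rw [h1', zero_add] at h0
      exact (Submodule.mem_bot K).2 (Prod.ext (Subtype.ext h1') (Subtype.ext h0))
    · intro v
      have hv : v ∈ p.toSubmodule ⊔ c.toSubmodule := by
        rw [← Subrepresentation.toSubmodule_sup, h.sup_eq_top]; trivial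
      obtain ⟨a, ha, b, hb, hab⟩ := Submodule.mem_sup.1 hv
      exact ⟨(⟨a, ha⟩, ⟨b, hb⟩), hab⟩
  let φ : (p.toRepresentation.prod c.toRepresentation).Equiv ρ :=
    Representation.Equiv.mk (LinearEquiv.ofBijective f hbij) fun g => LinearMap.ext fun x => by
      change ((p.toRepresentation g x.1 : V) + (c.toRepresentation g x.2 : V))
        = ρ g ((x.1 : V) + (x.2 : V))
      rw [map_add]; rfl
  rw [← Representation.char_iso φ]
  funext g
  exact LinearMap.trace_prodMap' (p.toRepresentation g) (c.toRepresentation g)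

end Split

/-- Cancellation. -/
theorem isRealisable_of_sub [Finite G] [CharZero K] {χ : G → ℂ} (hχ : Cfsg.IsCharacter G χ) :
    ∀ (n : ℕ) (σ : Representation K G (Fin n → K)) {a : G → ℂ}, IsRealisable ι a →
      (∀ g, a g = χ g + ι (σ.character g)) → IsRealisable ι χ := by
  classical
  have := Fintype.ofFinite G
  have : Invertible (Nat.card G : K) := invertibleOfNonzero (Nat.cast_ne_zero.2 Nat.card_pos.ne')
  have : NeZero (Nat.card G : K) := ⟨Nat.cast_ne_zero.2 Nat.card_pos.ne'⟩
  intro n
  induction n using Nat.strong_induction_on with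
  | _ n ih =>
  intro σ a ha heq
  obtain ⟨m, α, hα⟩ := ha
  rcases Nat.eq_zero_or_pos n with rfl | hn
  · refine ⟨m, α, fun g => ?_⟩
    have h0 : σ.character g = 0 := by
      rw [Representation.character, Subsingleton.elim (σ g) 0, map_zero]
    rw [← hα, heq, h0, map_zero, add_zero]
  -- a minimal non-zero subrepresentation of `σ`
  obtain ⟨p, hp0, hpmin⟩ : ∃ p : Subrepresentation σ, p ≠ ⊥ ∧
      ∀ q : Subrepresentation σ, q ≠ ⊥ → q.toSubmodule ≤ p.toSubmodule → q = p := by
    have hex : ∃ k, ∃ p : Subrepresentation σ, p ≠ ⊥ ∧ finrank K p.toSubmodule = k := by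
      refine ⟨_, ⊤, fun h => ?_, rfl⟩
      have h' : (⊤ : Submodule K (Fin n → K)) = ⊥ := congrArg Subrepresentation.toSubmodule h
      have := congrArg (fun W : Submodule K (Fin n → K) => finrank K W) h'
      simp at this
      omega
    obtain ⟨p, hp, hk⟩ := Nat.find_spec hex
    refine ⟨p, hp, fun q hq hle => Subrepresentation.toSubmodule_injective
      (Submodule.eq_of_le_of_finrank_le hle ?_)⟩
    rw [hk]
    exact Nat.find_min' hex ⟨q, hq, rfl⟩
  set w : G → ℂ := fun g => ι (p.toRepresentation.character g) with hw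
  have hwchar : Cfsg.IsCharacter G w := isCharacter_of_realisable ι (isRealisable_character ι _)
  -- a non-zero map from `p` to `α`
  obtain ⟨f, hf⟩ : ∃ f : Representation.IntertwiningMap p.toRepresentation α, f ≠ 0 := by
    by_contra hnone
    push Not at hnone
    have : Subsingleton (Representation.IntertwiningMap p.toRepresentation α) :=
      ⟨fun x y => (hnone x).trans (hnone y).symm⟩
    have h1 := congrArg ι (Representation.card_inv_mul_sum_char_mul_char_eq_finrank p.toRepresentation α)
    have h2 := congrArg ι (Representation.card_inv_mul_sum_char_mul_char_eq_finrank p.toRepresentation σ)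
    rw [finrank_eq_zero_of_subsingleton, Nat.cast_zero, map_zero] at h1
    simp only [map_mul, map_inv₀, map_natCast, map_sum, ← hα, heq, add_mul, Finset.sum_add_distrib,
      mul_add] at h1 h2
    rw [h2] at h1
    obtain ⟨k, hk⟩ : ∃ k : ℕ, (Nat.card G : ℂ)⁻¹ * ∑ g : G, χ g * ι (p.toRepresentation.character g⁻¹)
        = k := by
      obtain ⟨N, τ, rfl⟩ := hχ
      obtain ⟨N', τ', hτ'⟩ := hwchar
      refine ⟨finrank ℂ (Representation.IntertwiningMap τ' τ), ?_⟩
      rw [← CfsgLib.CharTheory.classInner_character_eq_finrank, Cfsg.classInner]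
      congr 1
      refine Finset.sum_congr rfl fun g _ => ?_
      rw [← CfsgLib.CharTheory.character_inv τ' g, hτ']
    rw [hk, ← Nat.cast_add, Nat.cast_eq_zero] at h1
    have hz : finrank K (Representation.IntertwiningMap p.toRepresentation σ) = 0 := by omega
    have : Module.Finite K (Representation.IntertwiningMap p.toRepresentation σ) :=
      Module.Finite.equiv (Representation.invariantsEquivIntertwiningMap _ _)
    have := Module.finrank_zero_iff.1 hz
    apply hp0
    let incl : Representation.IntertwiningMap p.toRepresentation σ :=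
      ⟨p.toSubmodule.subtype, fun g => rfl⟩
    have h0 : ∀ v : p.toSubmodule, (v : Fin n → K) = 0 := fun v =>
      congrFun (congrArg (fun F : Representation.IntertwiningMap p.toRepresentation σ => (F : _ → _))
        (Subsingleton.elim incl 0)) v
    exact Subrepresentation.toSubmodule_injective (eq_bot_iff.2 fun v hv =>
      (Submodule.mem_bot K).2 (h0 ⟨v, hv⟩))
  have hinj : Function.Injective f := by
    let q : Subrepresentation σ := ⟨(LinearMap.ker f.toLinearMap).map p.toSubmodule.subtype, by
      rintro g v ⟨x, hx, rfl⟩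
      refine ⟨p.toRepresentation g x, ?_, rfl⟩
      rw [SetLike.mem_coe, LinearMap.mem_ker, Representation.IntertwiningMap.toLinearMap_apply,
        f.isIntertwining]
      have hx' : f x = 0 := hx
      rw [hx', map_zero]⟩
    have hqp : q.toSubmodule ≤ p.toSubmodule := by
      rintro v ⟨x, -, rfl⟩
      exact x.2
    by_cases hq : q = ⊥
    · refine fun x y hxy => ?_
      have hmem : (((x - y : p.toSubmodule) : Fin n → K)) ∈ q.toSubmodule :=
        ⟨x - y, by
          rw [SetLike.mem_coe, LinearMap.mem_ker, map_sub]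
          exact sub_eq_zero.2 hxy, rfl⟩
      rw [hq] at hmem
      exact sub_eq_zero.1 (Subtype.ext ((Submodule.mem_bot K).1 hmem))
    · refine absurd ?_ hf
      have he := hpmin q hq hqp
      refine Representation.IntertwiningMap.ext (LinearMap.ext fun x => ?_)
      have hx : (x : Fin n → K) ∈ q.toSubmodule := (congrArg Subrepresentation.toSubmodule he).symm.le x.2
      obtain ⟨y, hy, hxy⟩ := hx
      rw [← Subtype.ext (hxy : (y : Fin n → K) = x)]
      exact hy
  -- remove `p` from both sides
  obtain ⟨c, hc⟩ := exists_isCompl p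
  obtain ⟨d, hd⟩ := exists_isCompl f.range
  have hσ := character_eq_add_of_isCompl hc
  have hαc := character_eq_add_of_isCompl hd
  let φ : p.toRepresentation.Equiv f.range.toRepresentation :=
    Representation.Equiv.mk (LinearEquiv.ofInjective f.toLinearMap hinj) fun g =>
      LinearMap.ext fun x => Subtype.ext (f.isIntertwining _ _ g x)
  rw [← Representation.char_iso φ] at hαc
  obtain ⟨k, τ, hτ⟩ := isRealisable_character ι c.toRepresentation
  refine ih k ?_ τ (isRealisable_character ι d.toRepresentation) fun g => ?_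
  · have e : ι (c.toRepresentation.character 1) = ι (τ.character 1) := hτ 1
    rw [c.toRepresentation.char_one, τ.char_one, map_natCast, map_natCast, Nat.cast_inj,
      Module.finrank_fin_fun] at e
    have hadd := congrFun hσ 1
    rw [Pi.add_apply, σ.char_one, p.toRepresentation.char_one, c.toRepresentation.char_one,
      Module.finrank_fin_fun, ← Nat.cast_add, Nat.cast_inj] at hadd
    have hp1 : 0 < finrank K p.toSubmodule := by
      rw [Nat.pos_iff_ne_zero, Ne, Submodule.finrank_eq_zero]
      exact fun h => hp0 (Subrepresentation.toSubmodule_injective h)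
    omega
  · have h1 := heq g
    rw [hα, hαc, hσ, Pi.add_apply, Pi.add_apply, map_add, map_add] at h1
    rw [← hτ]
    linear_combination h1

/-- A combination of realisable functions that is a character is realisable. -/
theorem isRealisable_of_mem_closure [Finite G] [CharZero K] {S : Set (G → ℂ)}
    (hS : ∀ f ∈ S, IsRealisable ι f) {χ : G → ℂ} (hχ : Cfsg.IsCharacter G χ)
    (hmem : χ ∈ AddSubgroup.closure S) : IsRealisable ι χ := by
  have h : ∀ f ∈ AddSubgroup.closure S, ∃ a b, IsRealisable ι a ∧ IsRealisable ι b ∧ f = a - b := by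
    intro f hf
    induction hf using AddSubgroup.closure_induction with
    | mem x hx => exact ⟨x, 0, hS x hx, isRealisable_zero ι, (sub_zero x).symm⟩
    | zero => exact ⟨0, 0, isRealisable_zero ι, isRealisable_zero ι, (sub_zero 0).symm⟩
    | add x y _ _ hx hy =>
      obtain ⟨a, b, ha, hb, rfl⟩ := hx
      obtain ⟨c, d, hc, hd, rfl⟩ := hy
      exact ⟨a + c, b + d, IsRealisable.add ι ha hc, IsRealisable.add ι hb hd, by abel⟩
    | neg x _ hx =>
      obtain ⟨a, b, ha, hb, rfl⟩ := hx
      exact ⟨b, a, hb, ha, neg_sub a b⟩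
  obtain ⟨a, b, ha, ⟨n, σ, hσ⟩, he⟩ := h χ hmem
  refine isRealisable_of_sub ι hχ n σ ha fun g => ?_
  rw [← hσ, he, Pi.sub_apply, sub_add_cancel]

end CfsgLib.Frobenius
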